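import Mathlib

/-!
# SL(2,3): facts checked by the kernel
-/

set_option autoImplicit false

namespace Cfsg.Agent.H870.STwoThree

/-- SL(2,3) -/
abbrev S23 := Matrix.SpecialLinearGroup (Fin 2) (ZMod 3)

/-- an element of order 4 -/
def mI : S23 := ⟨!![0, 1; -1, 0], by decide⟩
/-- an element of order 4 -/
def mJ : S23 := ⟨!![1, 1; 1, -1], by decide⟩
/-- the central involution -/
def mZ : S23 := ⟨!![-1, 0; 0, -1], by decide⟩

theorem II : mI * mI = mZ := by decide +kernel
theorem JJ : mJ * mJ = mZ := by decide +kernel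
theorem JI : mJ * mI = mI * mJ * mZ := by decide +kernel
theorem ZZ : mZ * mZ = 1 := by decide +kernel
theorem Z_ne : mZ ≠ 1 := by decide +kernel
theorem I4 : mI ^ 4 = 1 := by decide +kernel
theorem J4 : mJ ^ 4 = 1 := by decide +kernel
theorem Z4 : mZ ^ 4 = 1 := by decide +kernel

theorem Z_comm : ∀ M : S23, mZ * M = M * mZ := by decide +kernel
theorem sq_one : ∀ M : S23, M * M = 1 → M = 1 ∨ M = mZ := by decide +kernel
theorem four_sq : ∀ M : S23, M ^ 4 = 1 → M * M = 1 ∨ M * M = mZ := by decide +kernel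
theorem four_mul : ∀ M N : S23, M ^ 4 = 1 → N ^ 4 = 1 → (M * N) ^ 4 = 1 := by decide +kernel
theorem four_comm : ∀ M N : S23, M ^ 4 = 1 → N ^ 4 = 1 → M * N = N * M ∨ M * N = N * M * mZ := by
  decide +kernel
theorem four_cent : ∀ M : S23, M ^ 4 = 1 → M * mI = mI * M → M * mJ = mJ * M → M = 1 ∨ M = mZ := by
  decide +kernel
theorem four_three : ∀ M : S23, ∃ N : S23, N ^ 3 = 1 ∧ (M * N) ^ 4 = 1 := by decide +kernel
theorem three_three : ∀ M : S23, M = mZ ∨ ∃ A B : S23, A ^ 3 = 1 ∧ B ^ 3 = 1 ∧ M = A * B := by decide +kernel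
theorem conj_I : ∀ M : S23, M * M = mZ → ∃ g : S23, g * M * g⁻¹ = mI := by decide +kernel
theorem four_rep : ∀ M : S23, M ^ 4 = 1 → ∃ a b c : Bool, M =
    (if a then mI else 1) * (if b then mJ else 1) * (if c then mZ else 1) := by decide +kernel
theorem card_four : Fintype.card {M : S23 // M ^ 4 = 1} = 8 := by decide +kernel
theorem card_sq : Fintype.card {M : S23 // M * M = mZ} = 6 := by decide +kernel
theorem card_all : Fintype.card S23 = 24 := by decide +kernel

end Cfsg.Agent.H870.STwoThree
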