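import Cfsg.Agent.H870.U4Two

/-!
# No subgroup of index two, no normal subgroup of odd order

The situation of `U₄(3)`: `Two z φ₁ φ₂`, `Q = QQ`, `|C_G(z)| = 2^7 · 3^2`, `z^g ∈ Q`, `|Q ∩ Q^g| = 4`.
-/

set_option autoImplicit false

namespace Cfsg.Agent.H870.U4Index

open Cfsg.Agent.H870.STwoThree Cfsg.Agent.Co2Type.Quad Cfsg.Agent.LargeExtra.W2
  Cfsg.Agent.H870.U4Two Cfsg.Agent.LargeExtra.Base

variable {G : Type*} [Group G] [Finite G]

theorem relIndex_mul_card (H K : Subgroup G) (h : H ≤ K) :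
    H.relIndex K * Nat.card H = Nat.card K := by
  have := Subgroup.relIndex_mul_relIndex ⊥ H K bot_le h
  rw [Subgroup.relIndex_bot_left, Subgroup.relIndex_bot_left] at this
  rw [mul_comm]
  exact this

/-- the centraliser of a non-central element of a large extraspecial group has index two -/
theorem card_cent_inf {Q : Subgroup G} {z : G} (h : Large Q z) {a : G} (ha : a ∈ Q) (h1 : a ≠ 1)
    (hz : a ≠ z) : 2 * Nat.card ↥(Subgroup.centralizer ({a} : Set G) ⊓ Q) = Nat.card Q := by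
  have h2 : (Subgroup.centralizer ({a} : Set G)).relIndex Q = 2 := by
    rw [Subgroup.relIndex_eq_two_iff_exists_notMem_and]
    obtain ⟨y, hy, hya⟩ := exists_not_comm h ha h1 hz
    have hne : a * y ≠ y * a := by
      intro he
      rw [he] at hya
      exact h.z_ne (mul_eq_left.1 hya.symm)
    refine ⟨y, hy, ?_, ?_⟩
    · rw [Subgroup.mem_centralizer_singleton_iff]
      exact fun he => hne he.symm
    · intro b hb
      by_cases hba : b * a = a * b
      · right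
        rw [Subgroup.mem_centralizer_singleton_iff]
        exact hba
      · left
        rw [Subgroup.mem_centralizer_singleton_iff]
        have h3 : b * a = a * b * z := by
          rcases h.comm b hb a ha with h4 | h4
          · exact absurd h4 hba
          · exact h4
        have h5 : b * z = z * b := h.comm_z b hb
        calc b * y * a = b * (y * a) := by group
          _ = b * (a * y * z) := by rw [hya]
          _ = (b * a) * y * z := by group
          _ = a * b * z * y * z := by rw [h3]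
          _ = a * b * (z * y) * z := by group
          _ = a * b * (y * z) * z := by rw [h.comm_z y hy]
          _ = a * (b * y) * (z * z) := by group
          _ = a * (b * y) := by rw [h.z_sq, mul_one]
  rw [← Subgroup.inf_relIndex_right] at h2
  have h3 := relIndex_mul_card (Subgroup.centralizer ({a} : Set G) ⊓ Q) Q inf_le_right
  rw [h2] at h3
  exact h3

variable {z : G} {φ₁ φ₂ : S23 →* G}

theorem mem_of_odd {N : Subgroup G} (hN : N.index = 2) {x : G} (hx : x ^ 3 = 1) : x ∈ N := by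
  have h2 : x * x ∈ N := Subgroup.mul_self_mem_of_index_two hN x
  have h4 : x = (x * x) * (x * x) := by
    calc x = x ^ 3 * x := by rw [hx, one_mul]
      _ = (x * x) * (x * x) := by rw [pow_succ, pow_two]; group
  rw [h4]
  exact mul_mem h2 h2

theorem phi_mem {N : Subgroup G} (hN : N.index = 2) (φ : S23 →* G) (M : S23) : φ M ∈ N := by
  have key : ∀ A B : S23, A ^ 3 = 1 → B ^ 3 = 1 → φ (A * B) ∈ N := by
    intro A B hA hB
    rw [map_mul]
    exact mul_mem (mem_of_odd hN (by rw [← map_pow, hA, map_one]))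
      (mem_of_odd hN (by rw [← map_pow, hB, map_one]))
  have hI : φ mI ∈ N := by
    rcases three_three mI with h | ⟨A, B, hA, hB, h⟩
    · exact absurd h (by decide +kernel)
    · rw [h]; exact key A B hA hB
  rcases three_three M with h | ⟨A, B, hA, hB, h⟩
  · rw [h, ← II, map_mul]
    exact mul_mem hI hI
  · rw [h]; exact key A B hA hB

/-- `|C_G(z) ∩ C_G(a)| ≤ 64` -/
theorem card_two_cent (h : Two z φ₁ φ₂)
    (hC : Nat.card (Subgroup.centralizer ({z} : Set G)) = 1152) {a : G} (ha : a ∈ QQ h)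
    (haa : a * a = 1) (h1 : a ≠ 1) (hz : a ≠ z) :
    Nat.card ↥(Subgroup.centralizer ({z} : Set G) ⊓ Subgroup.centralizer ({a} : Set G)) ≤ 64 := by
  obtain ⟨M₀, N₀, h0⟩ := h.conj_inv ha haa h1 hz
  have hcz : ∀ M N, φ₁ M * φ₂ N ∈ Subgroup.centralizer ({z} : Set G) := by
    intro M N
    rw [Subgroup.mem_centralizer_singleton_iff]
    exact h.z_comm M N
  have key : ∀ x : {x : G // x ∈ QQ h ∧ x * x = 1 ∧ x ≠ 1 ∧ x ≠ z},
      ∃ c ∈ Subgroup.centralizer ({z} : Set G), c * a * c⁻¹ = x := by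
    rintro ⟨x, hx, hxx, hx1, hxz⟩
    obtain ⟨M, N, h2⟩ := h.conj_inv hx hxx hx1 hxz
    refine ⟨(φ₁ M * φ₂ N)⁻¹ * (φ₁ M₀ * φ₂ N₀), mul_mem (inv_mem (hcz _ _)) (hcz _ _), ?_⟩
    calc (φ₁ M * φ₂ N)⁻¹ * (φ₁ M₀ * φ₂ N₀) * a * ((φ₁ M * φ₂ N)⁻¹ * (φ₁ M₀ * φ₂ N₀))⁻¹
        = (φ₁ M * φ₂ N)⁻¹ * ((φ₁ M₀ * φ₂ N₀) * a * (φ₁ M₀ * φ₂ N₀)⁻¹) * (φ₁ M * φ₂ N) := by group
      _ = (φ₁ M * φ₂ N)⁻¹ * ((φ₁ M * φ₂ N) * x * (φ₁ M * φ₂ N)⁻¹) * (φ₁ M * φ₂ N) := by rw [h0, h2]
      _ = x := by group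
  choose c hc hca using key
  let f : {x : G // x ∈ QQ h ∧ x * x = 1 ∧ x ≠ 1 ∧ x ≠ z} ×
      ↥(Subgroup.centralizer ({z} : Set G) ⊓ Subgroup.centralizer ({a} : Set G)) →
      Subgroup.centralizer ({z} : Set G) := fun p => ⟨c p.1 * p.2, mul_mem (hc _) p.2.2.1⟩
  have hf : Function.Injective f := by
    rintro ⟨x, m⟩ ⟨y, n⟩ hxy
    have h2 : c x * m = c y * n := congrArg Subtype.val hxy
    have h3 : ∀ (x : {x : G // x ∈ QQ h ∧ x * x = 1 ∧ x ≠ 1 ∧ x ≠ z})
        (m : ↥(Subgroup.centralizer ({z} : Set G) ⊓ Subgroup.centralizer ({a} : Set G))),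
        (c x * m) * a * (c x * m)⁻¹ = x := by
      intro x m
      have h4 : (m : G) * a = a * m := Subgroup.mem_centralizer_singleton_iff.1 m.2.2
      calc (c x * m) * a * (c x * m)⁻¹ = c x * (m * a) * (m : G)⁻¹ * (c x)⁻¹ := by group
        _ = c x * a * (c x)⁻¹ := by rw [h4]; group
        _ = x := hca x
    have h5 : x = y := Subtype.ext (by rw [← h3 x m, ← h3 y n, h2])
    subst h5
    have h6 : m = n := Subtype.ext (mul_left_cancel h2)
    rw [h6]
  have h7 := Nat.card_le_card_of_injective f hf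
  rw [Nat.card_prod, hC] at h7
  have h8 := h.card_inv
  by_contra hcon
  push Not at hcon
  have : 18 * 65 ≤ 1152 := (Nat.mul_le_mul h8 hcon).trans h7
  omega

/-- no subgroup of index two -/
theorem no_index_two (h : Two z φ₁ φ₂) (hl : Large (QQ h) z)
    (hC : Nat.card (Subgroup.centralizer ({z} : Set G)) = 1152) {g : G} (hg : g * z * g⁻¹ ∈ QQ h)
    (hne : g * z * g⁻¹ ≠ z)
    (h4 : Nat.card ↥(QQ h ⊓ (QQ h).map (MulAut.conj g).toMonoidHom) = 4) (N : Subgroup G) :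
    N.index ≠ 2 := by
  intro hN
  have hNn : N.Normal := Subgroup.normal_of_index_eq_two hN
  have hQN : QQ h ≤ N := by
    rintro _ ⟨A, B, -, -, rfl⟩
    exact mul_mem (phi_mem hN φ₁ A) (phi_mem hN φ₂ B)
  have p := pair_of_conj hl hg hne
  have hAN : (QQ h).map (MulAut.conj g).toMonoidHom ≤ N := by
    rintro _ ⟨x, hx, rfl⟩
    exact hNn.conj_mem x (hQN hx) g
  have hcardA : Nat.card ((QQ h).map (MulAut.conj g).toMonoidHom) = 32 := by
    rw [Subgroup.card_map_of_injective (MulAut.conj g).injective, card_QQ h]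
  revert p h4 hAN hcardA hg hne
  generalize (QQ h).map (MulAut.conj g).toMonoidHom = A
  generalize g * z * g⁻¹ = a
  intro ha hne h4 p hAN hcardA
  have ha1 : a ≠ 1 := p.la.z_ne
  have haa : a * a = 1 := p.la.z_sq
  -- the two subgroups of order 16
  have c1 : Nat.card ↥(Subgroup.centralizer ({a} : Set G) ⊓ QQ h) = 16 := by
    have := card_cent_inf hl ha ha1 hne
    rw [card_QQ h] at this
    omega
  have c2 : Nat.card ↥(Subgroup.centralizer ({z} : Set G) ⊓ A) = 16 := by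
    have := card_cent_inf p.la p.z_mem hl.z_ne hne.symm
    rw [hcardA] at this
    omega
  set D := Subgroup.centralizer ({z} : Set G) ⊓ Subgroup.centralizer ({a} : Set G) with hD
  have hD64 : Nat.card D ≤ 64 := card_two_cent h hC ha haa ha1 hne
  have hQC : QQ h ≤ Subgroup.centralizer ({z} : Set G) := by
    intro x hx
    rw [Subgroup.mem_centralizer_singleton_iff]
    exact hl.comm_z x hx
  have hAC : A ≤ Subgroup.centralizer ({a} : Set G) := by
    intro x hx
    rw [Subgroup.mem_centralizer_singleton_iff]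
    exact p.la.comm_z x hx
  have l1 : Subgroup.centralizer ({a} : Set G) ⊓ QQ h ≤ D ⊓ N :=
    le_inf (le_inf (inf_le_right.trans hQC) inf_le_left) (inf_le_right.trans hQN)
  have l2 : Subgroup.centralizer ({z} : Set G) ⊓ A ≤ D ⊓ N :=
    le_inf (le_inf inf_le_left (inf_le_right.trans hAC)) (inf_le_right.trans hAN)
  have c3 : Nat.card ↥((Subgroup.centralizer ({a} : Set G) ⊓ QQ h) ⊓
      (Subgroup.centralizer ({z} : Set G) ⊓ A)) = 4 := by
    rw [← h4]
    congr 2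
    apply le_antisymm
    · exact inf_le_inf inf_le_right inf_le_right
    · intro x hx
      exact ⟨⟨hAC hx.2, hx.1⟩, ⟨hQC hx.1, hx.2⟩⟩
  have i1 : (Subgroup.centralizer ({a} : Set G) ⊓ QQ h).relIndex
      (Subgroup.centralizer ({z} : Set G) ⊓ A) = 4 := by
    have h5 := relIndex_mul_card ((Subgroup.centralizer ({a} : Set G) ⊓ QQ h) ⊓
      (Subgroup.centralizer ({z} : Set G) ⊓ A)) (Subgroup.centralizer ({z} : Set G) ⊓ A) inf_le_right
    rw [Subgroup.inf_relIndex_right, c3, c2] at h5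
    omega
  have i2 : 4 ≤ (Subgroup.centralizer ({a} : Set G) ⊓ QQ h).relIndex (D ⊓ N) := by
    rw [← i1]
    exact Subgroup.relIndex_le_of_le_right l2 (Subgroup.index_ne_zero_of_finite (H := Subgroup.subgroupOf _ (D ⊓ N)))
  have i3 := relIndex_mul_card (Subgroup.centralizer ({a} : Set G) ⊓ QQ h) (D ⊓ N) l1
  rw [c1] at i3
  have hDN : D ⊓ N = D := by
    apply Subgroup.eq_of_le_of_card_ge inf_le_left
    rw [← i3]
    omega
  have hDN' : D ≤ N := by rw [← hDN]; exact inf_le_right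
  -- `C ≤ N`
  have hCN : Subgroup.centralizer ({z} : Set G) ≤ N := by
    intro c hc
    have hcz := Subgroup.mem_centralizer_singleton_iff.1 hc
    have h5 : c * a * c⁻¹ ∈ QQ h := hl.conj_mem c hcz a ha
    have h6 : c * a * c⁻¹ * (c * a * c⁻¹) = 1 := by
      calc c * a * c⁻¹ * (c * a * c⁻¹) = c * (a * a) * c⁻¹ := by group
        _ = 1 := by rw [haa]; group
    have h7 : c * a * c⁻¹ ≠ 1 := by
      intro h8
      rw [mul_inv_eq_one] at h8
      exact ha1 (mul_eq_left.1 h8)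
    have h8 : c * a * c⁻¹ ≠ z := by
      intro h9
      rw [mul_inv_eq_iff_eq_mul, ← hcz] at h9
      exact hne (mul_left_cancel h9)
    obtain ⟨M₀, N₀, e0⟩ := h.conj_inv ha haa ha1 hne
    obtain ⟨M, N', e1⟩ := h.conj_inv h5 h6 h7 h8
    have m1 : ∀ A B, φ₁ A * φ₂ B ∈ N := fun A B => mul_mem (phi_mem hN φ₁ A) (phi_mem hN φ₂ B)
    have m2 : (φ₁ M₀ * φ₂ N₀)⁻¹ * (φ₁ M * φ₂ N') * c ∈ D := by
      rw [hD, Subgroup.mem_inf, Subgroup.mem_centralizer_singleton_iff,
        Subgroup.mem_centralizer_singleton_iff]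
      constructor
      · have hz1 : ∀ A B, Commute (φ₁ A * φ₂ B) z := h.z_comm
        have hz2 : Commute c z := hcz
        exact (((hz1 M₀ N₀).inv_left.mul_left (hz1 M N')).mul_left hz2).eq
      · rw [← mul_inv_eq_iff_eq_mul]
        calc (φ₁ M₀ * φ₂ N₀)⁻¹ * (φ₁ M * φ₂ N') * c * a * ((φ₁ M₀ * φ₂ N₀)⁻¹ * (φ₁ M * φ₂ N') * c)⁻¹
            = (φ₁ M₀ * φ₂ N₀)⁻¹ * ((φ₁ M * φ₂ N') * (c * a * c⁻¹) * (φ₁ M * φ₂ N')⁻¹) *
              (φ₁ M₀ * φ₂ N₀) := by group
          _ = (φ₁ M₀ * φ₂ N₀)⁻¹ * ((φ₁ M₀ * φ₂ N₀) * a * (φ₁ M₀ * φ₂ N₀)⁻¹) * (φ₁ M₀ * φ₂ N₀) := by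
            rw [e1, e0]
          _ = a := by group
    have m3 : c = (φ₁ M * φ₂ N')⁻¹ * (φ₁ M₀ * φ₂ N₀) *
        ((φ₁ M₀ * φ₂ N₀)⁻¹ * (φ₁ M * φ₂ N') * c) := by group
    rw [m3]
    exact mul_mem (mul_mem (inv_mem (m1 _ _)) (m1 _ _)) (hDN' m2)
  -- `C` has odd index
  have h9 := Cfsg.Agent.LargeExtra.TwoCentral.odd_index hl
  have h10 := Subgroup.index_dvd_of_le hCN
  rw [hN] at h10
  exact (Nat.not_even_iff_odd.2 h9) (even_iff_two_dvd.2 h10)

/-- no normal subgroup of odd order -/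
theorem odd_normal {Q : Subgroup G} (hl : Large Q z) {g : G} (hg : g * z * g⁻¹ ∈ Q)
    (hne : g * z * g⁻¹ ≠ z) (N : Subgroup G) [hNn : N.Normal] (hN : Odd (Nat.card N)) : N = ⊥ := by
  have p := pair_of_conj hl hg hne
  have hcop : ∀ x ∈ N, x * x = 1 → x = 1 := by
    intro x hx hxx
    by_contra hx1
    have h1 : orderOf (⟨x, hx⟩ : N) = 2 :=
      orderOf_eq_prime (by rw [pow_two]; exact Subtype.ext hxx) (fun h => hx1 (congrArg Subtype.val h))
    have h2 := orderOf_dvd_natCard (⟨x, hx⟩ : N)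
    rw [h1] at h2
    exact (Nat.not_even_iff_odd.2 hN) (even_iff_two_dvd.2 h2)
  -- `C_N(z) = 1`
  have c0 : ∀ x ∈ N, x * z = z * x → x = 1 := by
    intro x hx hxz
    have h1 : x ∈ Q := by
      apply hl.self x hxz
      intro y hy
      -- `[x, y] ∈ N ∩ Q`
      have h2 : x * y * x⁻¹ * y⁻¹ ∈ N := by
        have : x * y * x⁻¹ * y⁻¹ = x * (y * x⁻¹ * y⁻¹) := by group
        rw [this]
        exact mul_mem hx (hNn.conj_mem _ (inv_mem hx) y)
      have h3 : x * y * x⁻¹ * y⁻¹ ∈ Q := mul_mem (hl.conj_mem x hxz y hy) (inv_mem hy)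
      have h4 : x * y * x⁻¹ * y⁻¹ = 1 := by
        have h6 := hl.comm_z _ h3
        rcases hl.sq _ h3 with h5 | h5
        · exact hcop _ h2 h5
        · exfalso
          have hzN : z ∈ N := by rw [← h5]; exact mul_mem h2 h2
          exact hl.z_ne (hcop z hzN hl.z_sq)
      have h7 : x * y = (x * y * x⁻¹ * y⁻¹) * (y * x) := by group
      rw [h7, h4, one_mul]
    rcases hl.sq x h1 with h2 | h2
    · exact hcop x hx h2
    · exfalso
      have hzN : z ∈ N := by rw [← h2]; exact mul_mem hx hx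
      exact hl.z_ne (hcop z hzN hl.z_sq)
  -- conjugates of `z` act without fixed points
  have c1 : ∀ k : G, ∀ x ∈ N, x * (k * z * k⁻¹) = (k * z * k⁻¹) * x → x = 1 := by
    intro k x hx hxk
    have h1 : k⁻¹ * x * k = 1 := by
      apply c0
      · have := hNn.conj_mem x hx k⁻¹
        rwa [inv_inv] at this
      · calc k⁻¹ * x * k * z = k⁻¹ * (x * (k * z * k⁻¹)) * k := by group
          _ = k⁻¹ * ((k * z * k⁻¹) * x) * k := by rw [hxk]
          _ = z * (k⁻¹ * x * k) := by group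
    calc x = k * (k⁻¹ * x * k) * k⁻¹ := by group
      _ = 1 := by rw [h1]; group
  -- so they invert `N`
  have c2 : ∀ k : G, ∀ x ∈ N, (k * z * k⁻¹) * x * (k * z * k⁻¹)⁻¹ = x⁻¹ := by
    intro k x hx
    set w := k * z * k⁻¹ with hw
    have hww : w * w = 1 := by
      calc w * w = k * (z * z) * k⁻¹ := by rw [hw]; group
        _ = 1 := by rw [hl.z_sq]; group
    have hwi : w⁻¹ = w := inv_eq_of_mul_eq_one_left hww
    let f : N → N := fun y => y⁻¹ * ⟨w * y * w⁻¹, hNn.conj_mem y y.2 w⟩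
    have hf : Function.Injective f := by
      intro y y' hyy
      have h1 : (y : G)⁻¹ * (w * y * w⁻¹) = (y' : G)⁻¹ * (w * y' * w⁻¹) := congrArg Subtype.val hyy
      have h2 : (y' : G) * (y : G)⁻¹ = 1 := by
        apply c1 k
        · exact mul_mem y'.2 (inv_mem y.2)
        · rw [← hw]
          have h3 : (y' : G) * (y : G)⁻¹ = w * y' * w⁻¹ * (w * y * w⁻¹)⁻¹ := by
            rw [eq_mul_inv_iff_mul_eq]
            calc (y' : G) * (y : G)⁻¹ * (w * y * w⁻¹) = y' * ((y : G)⁻¹ * (w * y * w⁻¹)) := by group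
              _ = y' * ((y' : G)⁻¹ * (w * y' * w⁻¹)) := by rw [h1]
              _ = w * y' * w⁻¹ := by group
          calc (y' : G) * (y : G)⁻¹ * w = (w * y' * w⁻¹ * (w * y * w⁻¹)⁻¹) * w := by rw [← h3]
            _ = w * (y' * (y : G)⁻¹) := by group
      exact Subtype.ext (mul_inv_eq_one.1 h2).symm
    obtain ⟨y, hy⟩ := Finite.surjective_of_injective hf ⟨x, hx⟩
    have h1 : (y : G)⁻¹ * (w * y * w⁻¹) = x := congrArg Subtype.val hy
    rw [← h1]
    calc w * ((y : G)⁻¹ * (w * y * w⁻¹)) * w⁻¹ = w * (y : G)⁻¹ * w * y * (w * w)⁻¹ := by group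
      _ = w * (y : G)⁻¹ * w⁻¹ * y := by rw [hww, hwi]; group
      _ = ((y : G)⁻¹ * (w * y * w⁻¹))⁻¹ := by group
  rw [Subgroup.eq_bot_iff_forall]
  intro x hx
  -- `a z` is a conjugate of `z`
  obtain ⟨k, k1, k2, k3⟩ := p.cycle
  have h1 : (g * z * g⁻¹) * z = (k * k) * z * (k * k)⁻¹ := by
    calc (g * z * g⁻¹) * z = k * (g * z * g⁻¹) * k⁻¹ := k2.symm
      _ = k * (k * z * k⁻¹) * k⁻¹ := by rw [k1]
      _ = _ := by group
  have h2 := c2 g x hx
  have h3 := c2 1 x hx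
  have h4 : (1 : G) * z * 1⁻¹ = z := by group
  rw [h4] at h3
  apply c1 (k * k) x hx
  rw [← h1]
  have h5 : (g * z * g⁻¹ * z) * x * (g * z * g⁻¹ * z)⁻¹ = x := by
    calc (g * z * g⁻¹ * z) * x * (g * z * g⁻¹ * z)⁻¹
        = (g * z * g⁻¹) * (z * x * z⁻¹) * (g * z * g⁻¹)⁻¹ := by group
      _ = (g * z * g⁻¹) * x⁻¹ * (g * z * g⁻¹)⁻¹ := by rw [h3]
      _ = ((g * z * g⁻¹) * x * (g * z * g⁻¹)⁻¹)⁻¹ := by group
      _ = x := by rw [h2, inv_inv]
  rw [mul_inv_eq_iff_eq_mul] at h5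
  exact h5.symm

end Cfsg.Agent.H870.U4Index
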