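import Cfsg.Agent.H870.U4Index
import Cfsg.Agent.LargeExtra.W2.Cases
import Cfsg.Agent.LargeExtra.W2.Kill94
import Cfsg.Agent.LargeExtra.W2.U43.Fusion
import Cfsg.Agent.LargeExtra.W2.U43.InvClass

/-!
# The structure of `C_G(z)`, one class of involutions, simplicity (type `U₄(3)`)
-/

set_option autoImplicit false

namespace Cfsg.Agent.H870.U4Main

open Cfsg.Agent.H870.STwoThree Cfsg.Agent.Co2Type.Quad Cfsg.Agent.LargeExtra.W2
  Cfsg.Agent.H870.U4Two Cfsg.Agent.LargeExtra.Base Cfsg.Agent.LargeExtra.W2.U43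
  Cfsg.Agent.H870.U4Index

variable {G : Type*} [Group G] [Finite G] {z : G} {φ₁ φ₂ : S23 →* G}

/-- the coordinates of `U₄(3)` -/
theorem tw_of (h : Two z φ₁ φ₂) (hl : Large (QQ h) z)
    (hC : Nat.card (Subgroup.centralizer ({z} : Set G)) = 1152)
    (hO : ∀ N : Subgroup G, QQ h ≤ N → N ≤ Subgroup.centralizer ({z} : Set G) →
      (∀ c ∈ Subgroup.centralizer ({z} : Set G), ∀ n ∈ N, c * n * c⁻¹ ∈ N) → IsPGroup 2 N → N ≤ QQ h)
    {g : G} (hg : g * z * g⁻¹ ∈ QQ h) (hne : g * z * g⁻¹ ≠ z)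
    (h4 : Nat.card ↥(QQ h ⊓ (QQ h).map (MulAut.conj g).toMonoidHom) = 4) :
    ∃ i j k l x₁ x₂ y s, Tw (QQ h) z i j k l x₁ x₂ y s ∧ IsConj z s ∧ IsConj z (y * s) := by
  have hG : ∀ H : Subgroup G, H.index ≠ 2 := fun H => no_index_two h hl hC hg hne h4 H
  have hev : ∃ c ∈ Subgroup.centralizer ({z} : Set G), c ∉ QQ h ∧ c * c ∈ QQ h := by
    set C := Subgroup.centralizer ({z} : Set G) with hCdef
    have hQC : QQ h ≤ C := by
      intro x hx
      rw [hCdef, Subgroup.mem_centralizer_singleton_iff]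
      exact hl.comm_z x hx
    have hn : ((QQ h).subgroupOf C).Normal := by
      refine ⟨fun n hn c => ?_⟩
      exact hl.conj_mem c (Subgroup.mem_centralizer_singleton_iff.1 c.2) n hn
    have h1 : Nat.card ((QQ h).subgroupOf C) = 32 := by
      rw [Nat.card_congr (Subgroup.subgroupOfEquivOfLe hQC).toEquiv, card_QQ h]
    have h2 : Nat.card (C ⧸ (QQ h).subgroupOf C) = 36 := by
      have := Subgroup.card_eq_card_quotient_mul_card_subgroup ((QQ h).subgroupOf C)
      rw [hC, h1] at this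
      omega
    have : Fact (Nat.Prime 2) := ⟨Nat.prime_two⟩
    obtain ⟨q, hq⟩ := exists_prime_orderOf_dvd_card' (G := C ⧸ (QQ h).subgroupOf C) 2
      (by rw [h2]; norm_num)
    obtain ⟨c, rfl⟩ := QuotientGroup.mk_surjective q
    refine ⟨c, c.2, ?_, ?_⟩
    · intro hc
      have : (QuotientGroup.mk c : C ⧸ (QQ h).subgroupOf C) = 1 :=
        (QuotientGroup.eq_one_iff c).2 hc
      rw [this, orderOf_one] at hq
      exact absurd hq (by norm_num)
    · have h3 := pow_orderOf_eq_one (QuotientGroup.mk c : C ⧸ (QQ h).subgroupOf C)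
      rw [hq, pow_two, ← QuotientGroup.mk_mul, QuotientGroup.eq_one_iff] at h3
      exact h3
  rcases Cases.cases_plus hG (h.plus hl) hO hev with
      ⟨i, j, k, l, w, s, h1⟩ | ⟨i, j, k, l, v, y, h1⟩ | ⟨i, j, k, l, x₁, x₂, s, h1⟩ |
      ⟨i, j, k, l, x₁, x₂, y, h1⟩ | ⟨i, j, k, l, x₁, x₂, y, s, h1⟩ | ⟨i, j, k, l, x₁, x₂, f, h1, h2⟩
  · have := h1.card_cent; rw [hC] at this; exact absurd this (by norm_num)
  · have := h1.card_cent; rw [hC] at this; exact absurd this (by norm_num)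
  · have := h1.card_cent; rw [hC] at this; exact absurd this (by norm_num)
  · have := h1.card_cent; rw [hC] at this; exact absurd this (by norm_num)
  · obtain ⟨h2, h3, h4⟩ := Fusion.fusion h1 ⟨g, hg, hne⟩ hG
    exact ⟨i, j, k, l, x₁, x₂, y, s, h2, h3, h4⟩
  · exact (Kill94.case94_false h1 (pair_of_conj hl hg hne)).elim

/-- a Sylow subgroup inside `C_G(z)` -/
theorem exists_sylow {Q : Subgroup G} (hl : Large Q z) : ∃ T : Sylow 2 G, Q ≤ T ∧
    (T : Subgroup G) ≤ Subgroup.centralizer ({z} : Set G) := by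
  have : Fact (Nat.Prime 2) := ⟨Nat.prime_two⟩
  obtain ⟨T, hT⟩ := (isPGroup hl).exists_le_sylow
  exact ⟨T, hT, Cfsg.Agent.LargeExtra.TwoCentral.le_centralizer_of_two hl T.2 hT⟩

/-- all involutions are conjugate -/
theorem one_class (h : Two z φ₁ φ₂) (hl : Large (QQ h) z) {g : G} (hg : g * z * g⁻¹ ∈ QQ h)
    (hne : g * z * g⁻¹ ≠ z) {i j k l x₁ x₂ y s : G} (ht : Tw (QQ h) z i j k l x₁ x₂ y s)
    (hs : IsConj z s) (hys : IsConj z (y * s)) {u : G} (hu : u * u = 1) (hu1 : u ≠ 1) :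
    IsConj z u := by
  have : Fact (Nat.Prime 2) := ⟨Nat.prime_two⟩
  obtain ⟨T, hQT, hTC⟩ := exists_sylow hl
  -- `z ~ i k`
  have hik : IsConj z (i * k) := by
    have hi : i ∈ QQ h := by rw [ht.gen]; exact Subgroup.subset_closure (by simp)
    have hk : k ∈ QQ h := by rw [ht.gen]; exact Subgroup.subset_closure (by simp)
    have hikk : i * k * (i * k) = 1 := by
      calc i * k * (i * k) = i * (k * i) * k := by group
        _ = i * (i * k) * k := by rw [ht.ki]
        _ = (i * i) * (k * k) := by group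
        _ = 1 := by rw [ht.ii, ht.kk, hl.z_sq]
    have hik1 : i * k ≠ 1 := by
      intro h1
      have h2 : k = i⁻¹ := (inv_eq_of_mul_eq_one_right h1).symm
      have h3 := ht.kj
      rw [h2] at h3
      have h4 : j * i = i * j := by
        calc j * i = i * (i⁻¹ * j) * i := by group
          _ = i * (j * i⁻¹) * i := by rw [h3]
          _ = i * j := by group
      have h5 := ht.ji
      rw [h4] at h5
      exact hl.z_ne (mul_eq_left.1 h5.symm)
    have hikz : i * k ≠ z := by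
      intro h1
      have h2 : k = i⁻¹ * z := by rw [← h1]; group
      have h3 := ht.kj
      have hj : j ∈ QQ h := by rw [ht.gen]; exact Subgroup.subset_closure (by simp)
      have hjz := hl.comm_z j hj
      rw [h2] at h3
      have h4 : j * i = i * j := by
        have e1 : i⁻¹ * j * z = j * i⁻¹ * z := by
          calc i⁻¹ * j * z = i⁻¹ * (j * z) := by group
            _ = i⁻¹ * (z * j) := by rw [hjz]
            _ = i⁻¹ * z * j := by group
            _ = j * (i⁻¹ * z) := h3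
            _ = j * i⁻¹ * z := by group
        have e2 : i⁻¹ * j = j * i⁻¹ := mul_right_cancel e1
        calc j * i = i * (i⁻¹ * j) * i := by group
          _ = i * (j * i⁻¹) * i := by rw [e2]
          _ = i * j := by group
      have h5 := ht.ji
      rw [h4] at h5
      exact hl.z_ne (mul_eq_left.1 h5.symm)
    have p := pair_of_conj hl hg hne
    obtain ⟨M, N, h1⟩ := h.conj_inv (mul_mem hi hk) hikk hik1 hikz
    obtain ⟨M', N', h2⟩ := h.conj_inv hg p.la.z_sq p.la.z_ne hne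
    have c1 : IsConj (i * k) (φ₁ mI * φ₂ mI) := isConj_iff.2 ⟨_, h1⟩
    have c2 : IsConj (g * z * g⁻¹) (φ₁ mI * φ₂ mI) := isConj_iff.2 ⟨_, h2⟩
    have c3 : IsConj z (g * z * g⁻¹) := isConj_iff.2 ⟨_, rfl⟩
    exact c3.trans (c2.trans c1.symm)
  -- `u` may be taken in `C_G(z)`
  have h2 : IsPGroup 2 (Subgroup.zpowers u) := by
    apply IsPGroup.of_card (n := 1)
    rw [Nat.card_zpowers, pow_one]
    exact orderOf_eq_prime (by rw [pow_two]; exact hu) hu1
  obtain ⟨P, hP⟩ := h2.exists_le_sylow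
  obtain ⟨c, hc⟩ := MulAction.exists_smul_eq G P T
  have huP : u ∈ (P : Subgroup G) := hP (Subgroup.mem_zpowers u)
  have h3 : c * u * c⁻¹ ∈ (T : Subgroup G) := by
    rw [← hc]
    exact Subgroup.smul_mem_pointwise_smul u (MulAut.conj c) _ huP
  have h4 := Subgroup.mem_centralizer_singleton_iff.1 (hTC h3)
  have c0 : IsConj u (c * u * c⁻¹) := isConj_iff.2 ⟨c, rfl⟩
  obtain ⟨b, -, hb⟩ := InvClass.inv_class ht h4 (u := c * u * c⁻¹)
    (by
      calc c * u * c⁻¹ * (c * u * c⁻¹) = c * (u * u) * c⁻¹ := by group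
        _ = 1 := by rw [hu]; group)
    (by
      intro h5
      rw [mul_inv_eq_one] at h5
      exact hu1 (mul_eq_left.1 h5))
  have key : ∀ r : G, b * (c * u * c⁻¹) = r * b → IsConj z r → IsConj z u := by
    intro r h5 h6
    have h7 : IsConj (c * u * c⁻¹) r := isConj_iff.2 ⟨b, by rw [h5]; group⟩
    exact h6.trans (h7.symm.trans c0.symm)
  rcases hb with h5 | h5 | h5 | h5
  · exact key _ h5 (IsConj.refl z)
  · exact key _ h5 hik
  · exact key _ h5 hs
  · exact key _ h5 hys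

/-- `G` is simple -/
theorem simple (h : Two z φ₁ φ₂) (hl : Large (QQ h) z) {g : G} (hg : g * z * g⁻¹ ∈ QQ h)
    (hne : g * z * g⁻¹ ≠ z) {i j k l x₁ x₂ y s : G} (ht : Tw (QQ h) z i j k l x₁ x₂ y s)
    (hs : IsConj z s) (hys : IsConj z (y * s)) : IsSimpleGroup G := by
  have : Fact (Nat.Prime 2) := ⟨Nat.prime_two⟩
  have hnt : Nontrivial G := ⟨z, 1, hl.z_ne⟩
  refine ⟨fun N hN => ?_⟩
  by_cases hodd : Odd (Nat.card N)
  · exact Or.inl (odd_normal hl hg hne N hodd)
  right
  rw [Nat.not_odd_iff_even, even_iff_two_dvd] at hodd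
  obtain ⟨u, hu⟩ := exists_prime_orderOf_dvd_card' (G := N) 2 hodd
  have hu2 : (u : G) * u = 1 := by
    have := pow_orderOf_eq_one u
    rw [hu, pow_two] at this
    exact congrArg Subtype.val this
  have hu1 : (u : G) ≠ 1 := by
    intro h1
    have : u = 1 := Subtype.ext h1
    rw [this, orderOf_one] at hu
    exact absurd hu (by norm_num)
  -- `N` contains all involutions
  have mem_of : ∀ {a b : G}, IsConj a b → a ∈ N → b ∈ N := by
    intro a b hab ha
    obtain ⟨c, rfl⟩ := isConj_iff.1 hab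
    exact hN.conj_mem a ha c
  have hz : z ∈ N := mem_of (one_class h hl hg hne ht hs hys hu2 hu1).symm u.2
  have hsN : s ∈ N := mem_of hs hz
  have hysN : y * s ∈ N := mem_of hys hz
  have hyN : y ∈ N := by
    have : y = y * s * s⁻¹ := by group
    rw [this]
    exact mul_mem hysN (inv_mem hsN)
  have comm_mem : ∀ {a : G}, a ∈ N → ∀ b : G, a * b * a⁻¹ * b⁻¹ ∈ N := by
    intro a ha b
    have : a * b * a⁻¹ * b⁻¹ = a * (b * a⁻¹ * b⁻¹) := by group
    rw [this]
    exact mul_mem ha (hN.conj_mem _ (inv_mem ha) b)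
  have cube : ∀ {x : G}, x ^ 3 = 1 → x⁻¹ * x⁻¹ ∈ N → x ∈ N := by
    intro x hx hxx
    have : x = x⁻¹ * x⁻¹ := by
      calc x = x ^ 3 * x⁻¹ * x⁻¹ := by rw [pow_succ, pow_two]; group
        _ = _ := by rw [hx, one_mul]
    rw [this]
    exact hxx
  have hx₁ : x₁ ∈ N := by
    apply cube ht.x₁3
    have := comm_mem hyN x₁
    rwa [ht.y1] at this
  have hx₂ : x₂ ∈ N := by
    apply cube ht.x₂3
    have := comm_mem hyN x₂
    rwa [ht.y2] at this
  have hi : i ∈ N := by
    have := comm_mem hx₁ j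
    rw [ht.x₁_act.j] at this
    have e : i * j * j⁻¹ = i := by group
    rwa [e] at this
  have hj : j ∈ N := by
    have := comm_mem hx₁ i
    rw [ht.x₁_act.i] at this
    have e : j = j * i⁻¹ * i := by group
    rw [e]
    exact mul_mem this hi
  have hk : k ∈ N := by
    have := comm_mem hx₂ l
    rw [ht.x₂_act.l] at this
    have e : k * l * l⁻¹ = k := by group
    rwa [e] at this
  have hlN : l ∈ N := by
    have := comm_mem hx₂ k
    rw [ht.x₂_act.k] at this
    have e : l = l * k⁻¹ * k := by group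
    rw [e]
    exact mul_mem this hk
  have hCN : Subgroup.centralizer ({z} : Set G) ≤ N := by
    rw [ht.cent, Subgroup.closure_le]
    rintro _ (rfl | rfl | rfl | rfl | rfl | rfl | rfl | rfl) <;> assumption
  -- Frattini
  obtain ⟨T, hQT, hTC⟩ := exists_sylow hl
  have h1 := Sylow.normalizer_sup_eq_top' T (hTC.trans hCN)
  rw [eq_top_iff, ← h1, sup_le_iff]
  refine ⟨?_, le_rfl⟩
  refine le_trans ?_ hCN
  intro c hc
  rw [Subgroup.mem_centralizer_singleton_iff]
  have hc' : ∀ t, t ∈ (T : Subgroup G) ↔ c * t * c⁻¹ ∈ (T : Subgroup G) :=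
    Subgroup.mem_normalizer_iff.1 hc
  have h2 : ∀ q ∈ QQ h, (c * z * c⁻¹) * q = q * (c * z * c⁻¹) := by
    intro q hq
    have h3 : c⁻¹ * q * c ∈ (T : Subgroup G) := by
      rw [hc']
      have e : c * (c⁻¹ * q * c) * c⁻¹ = q := by group
      rw [e]
      exact hQT hq
    have h4 := Subgroup.mem_centralizer_singleton_iff.1 (hTC h3)
    calc (c * z * c⁻¹) * q = c * (z * (c⁻¹ * q * c)) * c⁻¹ := by group
      _ = c * ((c⁻¹ * q * c) * z) * c⁻¹ := by rw [h4]
      _ = q * (c * z * c⁻¹) := by group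
  rcases Cfsg.Agent.LargeExtra.TwoCentral.eq_of_central hl h2 with h3 | h3
  · exfalso
    rw [mul_inv_eq_one] at h3
    exact hl.z_ne (mul_eq_left.1 h3)
  · rwa [mul_inv_eq_iff_eq_mul] at h3

end Cfsg.Agent.H870.U4Main
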