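import Cfsg.Agent.H870.STwoThree
import Cfsg.Agent.LargeExtra.W2.Coord
import Cfsg.Agent.LargeExtra.TwoCentral

/-!
# Two commuting copies of SL(2,3) with the same central involution

`Two z φ₁ φ₂` : `φ₁`, `φ₂ : SL(2,3) → G` are injective with commuting images that meet in `⟨z⟩`.
`QQ` : the product of the two quaternion subgroups (order 32).
-/

set_option autoImplicit false

namespace Cfsg.Agent.H870.U4Two

open Cfsg.Agent.H870.STwoThree Cfsg.Agent.Co2Type.Quad Cfsg.Agent.LargeExtra.W2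

variable {G : Type*} [Group G]

/-- Two commuting copies of SL(2,3). -/
structure Two (z : G) (φ₁ φ₂ : S23 →* G) : Prop where
  inj₁ : Function.Injective φ₁
  inj₂ : Function.Injective φ₂
  z₁ : φ₁ mZ = z
  z₂ : φ₂ mZ = z
  comm : ∀ M N, φ₁ M * φ₂ N = φ₂ N * φ₁ M
  meet : ∀ M N, φ₁ M = φ₂ N → M = 1 ∨ M = mZ

variable {z : G} {φ₁ φ₂ : S23 →* G}

theorem Two.mul (_h : Two z φ₁ φ₂) (M N M' N' : S23) :
    (φ₁ M * φ₂ N) * (φ₁ M' * φ₂ N') = φ₁ (M * M') * φ₂ (N * N') := by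
  rw [map_mul, map_mul]
  calc (φ₁ M * φ₂ N) * (φ₁ M' * φ₂ N') = φ₁ M * (φ₂ N * φ₁ M') * φ₂ N' := by group
    _ = φ₁ M * (φ₁ M' * φ₂ N) * φ₂ N' := by rw [_h.comm]
    _ = _ := by group

theorem Two.inv (h : Two z φ₁ φ₂) (M N : S23) : (φ₁ M * φ₂ N)⁻¹ = φ₁ M⁻¹ * φ₂ N⁻¹ := by
  rw [mul_inv_rev, map_inv, map_inv, ← map_inv, ← map_inv, h.comm]

theorem Two.eq (h : Two z φ₁ φ₂) {M N M' N' : S23} (he : φ₁ M * φ₂ N = φ₁ M' * φ₂ N') :
    (M = M' ∧ N = N') ∨ (M = M' * mZ ∧ N = N' * mZ) := by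
  have h1 : φ₁ (M'⁻¹ * M) = φ₂ (N' * N⁻¹) := by
    rw [map_mul, map_mul, map_inv, map_inv]
    calc (φ₁ M')⁻¹ * φ₁ M = (φ₁ M')⁻¹ * (φ₁ M * φ₂ N) * (φ₂ N)⁻¹ := by group
      _ = _ := by rw [he]; group
  rcases h.meet _ _ h1 with h2 | h2
  · left
    rw [h2, map_one] at h1
    have h3 : N' * N⁻¹ = 1 := h.inj₂ (by rw [← h1, map_one])
    exact ⟨(inv_mul_eq_one.1 h2).symm, (mul_inv_eq_one.1 h3).symm⟩
  · right
    rw [h2, h.z₁, ← h.z₂] at h1
    have h3 : N' * N⁻¹ = mZ := (h.inj₂ h1).symm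
    have h4 : M = M' * mZ := by rw [← h2]; group
    refine ⟨h4, ?_⟩
    have h5 : N' = mZ * N := by rw [← h3]; group
    rw [h5, mul_assoc, ← Z_comm N, ← mul_assoc, ZZ, one_mul]

/-- the product of the two quaternion groups -/
def QQ (h : Two z φ₁ φ₂) : Subgroup G where
  carrier := {x | ∃ M N : S23, M ^ 4 = 1 ∧ N ^ 4 = 1 ∧ x = φ₁ M * φ₂ N}
  mul_mem' := by
    rintro _ _ ⟨M, N, h1, h2, rfl⟩ ⟨M', N', h3, h4, rfl⟩
    exact ⟨_, _, four_mul _ _ h1 h3, four_mul _ _ h2 h4, h.mul _ _ _ _⟩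
  one_mem' := ⟨1, 1, one_pow _, one_pow _, by rw [map_one, map_one, mul_one]⟩
  inv_mem' := by
    rintro _ ⟨M, N, h1, h2, rfl⟩
    exact ⟨_, _, by rw [inv_pow, h1, inv_one], by rw [inv_pow, h2, inv_one], h.inv _ _⟩

theorem mem_QQ (h : Two z φ₁ φ₂) {x : G} :
    x ∈ QQ h ↔ ∃ M N : S23, M ^ 4 = 1 ∧ N ^ 4 = 1 ∧ x = φ₁ M * φ₂ N := Iff.rfl

/-- representatives of the quaternion group modulo its centre -/
def rep : Fin 4 → S23 := ![1, mI, mJ, mI * mJ]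

theorem rep_four : ∀ a, rep a ^ 4 = 1 := by decide +kernel
theorem rep_inj : ∀ a b, rep a = rep b ∨ rep a = rep b * mZ → a = b := by decide +kernel
theorem rep_surj : ∀ M : S23, M ^ 4 = 1 → ∃ a, M = rep a ∨ M = rep a * mZ := by decide +kernel

theorem Two.shift (h : Two z φ₁ φ₂) (M N : S23) : φ₁ (M * mZ) * φ₂ N = φ₁ M * φ₂ (mZ * N) := by
  rw [map_mul, map_mul, h.z₁, h.z₂, mul_assoc]

theorem card_QQ (h : Two z φ₁ φ₂) : Nat.card (QQ h) = 32 := by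
  let f : Fin 4 × {M : S23 // M ^ 4 = 1} → QQ h := fun p =>
    ⟨φ₁ (rep p.1) * φ₂ p.2.1, rep p.1, p.2.1, rep_four _, p.2.2, rfl⟩
  have hf : Function.Bijective f := by
    constructor
    · rintro ⟨a, M, hM⟩ ⟨b, N, hN⟩ hab
      have h1 : φ₁ (rep a) * φ₂ M = φ₁ (rep b) * φ₂ N := congrArg Subtype.val hab
      rcases h.eq h1 with ⟨h2, h3⟩ | ⟨h2, h3⟩
      · have := rep_inj a b (Or.inl h2)
        subst this
        subst h3
        rfl
      · have := rep_inj a b (Or.inr h2)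
        subst this
        exfalso
        apply Z_ne
        exact mul_eq_left.1 h2.symm
    · rintro ⟨_, M, N, hM, hN, rfl⟩
      obtain ⟨a, rfl | rfl⟩ := rep_surj M hM
      · exact ⟨(a, ⟨N, hN⟩), rfl⟩
      · refine ⟨(a, ⟨mZ * N, four_mul _ _ Z4 hN⟩), ?_⟩
        apply Subtype.ext
        exact (h.shift _ _).symm
  rw [← Nat.card_eq_of_bijective f hf, Nat.card_prod, Nat.card_eq_fintype_card,
    Nat.card_eq_fintype_card, Fintype.card_fin, card_four]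

theorem QQ_gen (h : Two z φ₁ φ₂) : QQ h = Subgroup.closure {φ₁ mI, φ₁ mJ, φ₂ mI, φ₂ mJ} := by
  apply le_antisymm
  · rintro _ ⟨M, N, hM, hN, rfl⟩
    have key : ∀ φ : S23 →* G, φ mI ∈ Subgroup.closure {φ₁ mI, φ₁ mJ, φ₂ mI, φ₂ mJ} →
        φ mJ ∈ Subgroup.closure {φ₁ mI, φ₁ mJ, φ₂ mI, φ₂ mJ} →
        φ mZ ∈ Subgroup.closure {φ₁ mI, φ₁ mJ, φ₂ mI, φ₂ mJ} →
        ∀ M : S23, M ^ 4 = 1 → φ M ∈ Subgroup.closure {φ₁ mI, φ₁ mJ, φ₂ mI, φ₂ mJ} := by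
      intro φ h1 h2 h3 M hM
      obtain ⟨a, b, c, rfl⟩ := four_rep M hM
      rw [map_mul, map_mul]
      refine mul_mem (mul_mem ?_ ?_) ?_ <;> split_ifs <;>
        first | assumption | (rw [map_one]; exact one_mem _)
    have m1 : φ₁ mI ∈ Subgroup.closure ({φ₁ mI, φ₁ mJ, φ₂ mI, φ₂ mJ} : Set G) :=
      Subgroup.subset_closure (by simp)
    have m2 : φ₁ mJ ∈ Subgroup.closure ({φ₁ mI, φ₁ mJ, φ₂ mI, φ₂ mJ} : Set G) :=
      Subgroup.subset_closure (by simp)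
    have m3 : φ₂ mI ∈ Subgroup.closure ({φ₁ mI, φ₁ mJ, φ₂ mI, φ₂ mJ} : Set G) :=
      Subgroup.subset_closure (by simp)
    have m4 : φ₂ mJ ∈ Subgroup.closure ({φ₁ mI, φ₁ mJ, φ₂ mI, φ₂ mJ} : Set G) :=
      Subgroup.subset_closure (by simp)
    refine mul_mem (key φ₁ m1 m2 ?_ M hM) (key φ₂ m3 m4 ?_ N hN)
    · rw [← II, map_mul]; exact mul_mem m1 m1
    · rw [← II, map_mul]; exact mul_mem m3 m3
  · rw [Subgroup.closure_le]
    rintro _ (rfl | rfl | rfl | rfl)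
    · exact ⟨mI, 1, I4, one_pow _, by rw [map_one, mul_one]⟩
    · exact ⟨mJ, 1, J4, one_pow _, by rw [map_one, mul_one]⟩
    · exact ⟨1, mI, one_pow _, I4, by rw [map_one, one_mul]⟩
    · exact ⟨1, mJ, one_pow _, J4, by rw [map_one, one_mul]⟩

theorem Two.z_ne (h : Two z φ₁ φ₂) : z ≠ 1 := by
  rw [← h.z₁]
  intro h1
  exact Z_ne (h.inj₁ (by rw [h1, map_one]))

theorem Two.zz (h : Two z φ₁ φ₂) : z * z = 1 := by
  rw [← h.z₁, ← map_mul, ZZ, map_one]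

theorem Two.z_comm (h : Two z φ₁ φ₂) (M N : S23) : φ₁ M * φ₂ N * z = z * (φ₁ M * φ₂ N) := by
  have e1 : φ₂ N * z = z * φ₂ N := by rw [← h.z₂, ← map_mul, ← map_mul, Z_comm]
  have e2 : φ₁ M * z = z * φ₁ M := by rw [← h.z₁, ← map_mul, ← map_mul, Z_comm]
  rw [mul_assoc, e1, ← mul_assoc, e2, mul_assoc]

/-- squares -/
theorem Two.sq (h : Two z φ₁ φ₂) {x : G} (hx : x ∈ QQ h) : x * x = 1 ∨ x * x = z := by
  obtain ⟨M, N, hM, hN, rfl⟩ := hx
  rw [h.mul]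
  rcases four_sq M hM with h1 | h1 <;> rcases four_sq N hN with h2 | h2 <;> rw [h1, h2]
  · left; rw [map_one, map_one, mul_one]
  · right; rw [map_one, one_mul, h.z₂]
  · right; rw [map_one, mul_one, h.z₁]
  · left; rw [h.z₁, h.z₂, h.zz]

theorem Two.comm' (h : Two z φ₁ φ₂) {x y : G} (hx : x ∈ QQ h) (hy : y ∈ QQ h) :
    x * y = y * x ∨ x * y = y * x * z := by
  obtain ⟨M, N, hM, hN, rfl⟩ := hx
  obtain ⟨M', N', hM', hN', rfl⟩ := hy
  rw [h.mul, h.mul]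
  rcases four_comm M M' hM hM' with h1 | h1 <;> rcases four_comm N N' hN hN' with h2 | h2 <;>
    rw [h1, h2]
  · left; rfl
  · right; rw [map_mul φ₂ _ mZ, h.z₂, mul_assoc]
  · right
    rw [map_mul φ₁ _ mZ, h.z₁]
    have e : z * φ₂ (N' * N) = φ₂ (N' * N) * z := by rw [← h.z₂, ← map_mul, ← map_mul, Z_comm]
    rw [mul_assoc, e, mul_assoc]
  · left
    rw [map_mul φ₁ _ mZ, h.z₁, map_mul φ₂ _ mZ, h.z₂]
    have e : z * φ₂ (N' * N) = φ₂ (N' * N) * z := by rw [← h.z₂, ← map_mul, ← map_mul, Z_comm]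
    calc φ₁ (M' * M) * z * (φ₂ (N' * N) * z) = φ₁ (M' * M) * (z * φ₂ (N' * N)) * z := by group
      _ = φ₁ (M' * M) * φ₂ (N' * N) * (z * z) := by rw [e]; group
      _ = _ := by rw [h.zz, mul_one]

theorem Two.cent (h : Two z φ₁ φ₂) {x : G} (hx : x ∈ QQ h) (hc : ∀ y ∈ QQ h, x * y = y * x) :
    x = 1 ∨ x = z := by
  obtain ⟨M, N, hM, hN, rfl⟩ := hx
  have c1 : ∀ P : S23, P ^ 4 = 1 → M * P = P * M := by
    intro P hP
    have h1 := hc _ ⟨P, 1, hP, one_pow _, rfl⟩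
    rw [h.mul, h.mul] at h1
    rcases h.eq h1 with ⟨h2, h3⟩ | ⟨h2, h3⟩
    · exact h2
    · exfalso
      rw [mul_one, one_mul] at h3
      exact Z_ne (mul_eq_left.1 h3.symm)
  have c2 : ∀ P : S23, P ^ 4 = 1 → N * P = P * N := by
    intro P hP
    have h1 := hc _ ⟨1, P, one_pow _, hP, rfl⟩
    rw [h.mul, h.mul] at h1
    rcases h.eq h1 with ⟨h2, h3⟩ | ⟨h2, h3⟩
    · exact h3
    · exfalso
      rw [mul_one, one_mul] at h2
      exact Z_ne (mul_eq_left.1 h2.symm)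
  rcases four_cent M hM (c1 _ I4) (c1 _ J4) with rfl | rfl <;>
    rcases four_cent N hN (c2 _ I4) (c2 _ J4) with rfl | rfl
  · left; rw [map_one, map_one, mul_one]
  · right; rw [map_one, one_mul, h.z₂]
  · right; rw [map_one, mul_one, h.z₁]
  · left; rw [h.z₁, h.z₂, h.zz]

theorem Two.z_mem (h : Two z φ₁ φ₂) : z ∈ QQ h :=
  ⟨mZ, 1, Z4, one_pow _, by rw [map_one, mul_one, h.z₁]⟩

theorem Two.large (h : Two z φ₁ φ₂) (hn : ∀ g, g * z = z * g → ∀ x ∈ QQ h, g * x * g⁻¹ ∈ QQ h)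
    (hs : ∀ g, g * z = z * g → (∀ x ∈ QQ h, g * x = x * g) → g ∈ QQ h) : Large (QQ h) z where
  z_mem := h.z_mem
  z_ne := h.z_ne
  z_sq := h.zz
  comm_z := by
    rintro _ ⟨M, N, -, -, rfl⟩
    exact h.z_comm M N
  conj_mem := hn
  sq := fun _ hx => h.sq hx
  comm := fun _ hx _ hy => h.comm' hx hy
  cent := fun _ hx hc => h.cent hx hc
  self := hs

theorem Two.plus (h : Two z φ₁ φ₂) (hl : Large (QQ h) z) :
    Plus (QQ h) z (φ₁ mI) (φ₁ mJ) (φ₂ mI) (φ₂ mJ) where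
  large := hl
  card := card_QQ h
  gen := QQ_gen h
  ii := by rw [← map_mul, II, h.z₁]
  jj := by rw [← map_mul, JJ, h.z₁]
  kk := by rw [← map_mul, II, h.z₂]
  ll := by rw [← map_mul, JJ, h.z₂]
  ji := by rw [← map_mul, JI, map_mul, h.z₁, map_mul]
  lk := by rw [← map_mul, JI, map_mul, h.z₂, map_mul]
  ki := (h.comm _ _).symm
  li := (h.comm _ _).symm
  kj := (h.comm _ _).symm
  lj := (h.comm _ _).symm

/-- the non-central involutions of `QQ` are conjugate under the two copies -/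
theorem Two.conj_inv (h : Two z φ₁ φ₂) {x : G} (hx : x ∈ QQ h) (hxx : x * x = 1) (h1 : x ≠ 1)
    (hz : x ≠ z) : ∃ M N, (φ₁ M * φ₂ N) * x * (φ₁ M * φ₂ N)⁻¹ = φ₁ mI * φ₂ mI := by
  obtain ⟨M, N, hM, hN, rfl⟩ := hx
  have h2 : M * M = mZ ∧ N * N = mZ := by
    rw [h.mul] at hxx
    rcases four_sq M hM with e1 | e1 <;> rcases four_sq N hN with e2 | e2
    · exfalso
      rcases sq_one M e1 with rfl | rfl <;> rcases sq_one N e2 with rfl | rfl
      · exact h1 (by rw [map_one, map_one, mul_one])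
      · exact hz (by rw [map_one, one_mul, h.z₂])
      · exact hz (by rw [map_one, mul_one, h.z₁])
      · exact h1 (by rw [h.z₁, h.z₂, h.zz])
    · exfalso
      rw [e1, e2, map_one, one_mul, h.z₂] at hxx
      exact h.z_ne hxx
    · exfalso
      rw [e1, e2, map_one, mul_one, h.z₁] at hxx
      exact h.z_ne hxx
    · exact ⟨e1, e2⟩
  obtain ⟨g, hg⟩ := conj_I M h2.1
  obtain ⟨g', hg'⟩ := conj_I N h2.2
  exact ⟨g, g', by rw [h.inv, h.mul, h.mul, hg, hg']⟩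

/-- there are at least 18 non-central involutions in `QQ` -/
theorem Two.card_inv [Finite G] (h : Two z φ₁ φ₂) :
    18 ≤ Nat.card {x : G // x ∈ QQ h ∧ x * x = 1 ∧ x ≠ 1 ∧ x ≠ z} := by
  let f : Fin 3 × {M : S23 // M * M = mZ} → {x : G // x ∈ QQ h ∧ x * x = 1 ∧ x ≠ 1 ∧ x ≠ z} := fun p =>
    ⟨φ₁ (rep p.1.succ) * φ₂ p.2.1, by
      have hr : rep p.1.succ * rep p.1.succ = mZ := by
        have : ∀ a : Fin 3, rep a.succ * rep a.succ = mZ := by decide +kernel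
        exact this _
      have hp : p.2.1 ^ 4 = 1 := by
        have : p.2.1 ^ 4 = (p.2.1 * p.2.1) * (p.2.1 * p.2.1) := by
          rw [show (4 : ℕ) = 2 + 2 from rfl, pow_add, pow_two]
        rw [this, p.2.2, ZZ]
      refine ⟨⟨_, _, rep_four _, hp, rfl⟩, ?_, ?_, ?_⟩
      · rw [h.mul, hr, p.2.2, h.z₁, h.z₂, h.zz]
      · intro h1
        have h2 : φ₁ (rep p.1.succ) * φ₂ p.2.1 = φ₁ 1 * φ₂ 1 := by rw [h1, map_one, map_one, mul_one]
        rcases h.eq h2 with ⟨h3, -⟩ | ⟨h3, -⟩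
        · rw [h3, one_mul] at hr
          exact Z_ne hr.symm
        · rw [h3, one_mul, ZZ] at hr
          exact Z_ne hr.symm
      · intro h1
        have h2 : φ₁ (rep p.1.succ) * φ₂ p.2.1 = φ₁ mZ * φ₂ 1 := by rw [h1, map_one, h.z₁, mul_one]
        rcases h.eq h2 with ⟨h3, -⟩ | ⟨h3, -⟩
        · rw [h3, ZZ] at hr
          exact Z_ne hr.symm
        · rw [h3, ZZ, one_mul] at hr
          exact Z_ne hr.symm⟩
  have hf : Function.Injective f := by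
    rintro ⟨a, M, hM⟩ ⟨b, N, hN⟩ hab
    have h1 : φ₁ (rep a.succ) * φ₂ M = φ₁ (rep b.succ) * φ₂ N := congrArg Subtype.val hab
    rcases h.eq h1 with ⟨h2, h3⟩ | ⟨h2, h3⟩
    · have := Fin.succ_injective _ (rep_inj _ _ (Or.inl h2))
      subst this
      subst h3
      rfl
    · have := Fin.succ_injective _ (rep_inj _ _ (Or.inr h2))
      subst this
      exfalso
      apply Z_ne
      exact mul_eq_left.1 h2.symm
  have := Nat.card_le_card_of_injective f hf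
  rwa [Nat.card_prod, Nat.card_eq_fintype_card, Nat.card_eq_fintype_card, Fintype.card_fin,
    card_sq] at this

end Cfsg.Agent.H870.U4Two
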